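import Cfsg.Agent.H530.OZ.KCRow
import Cfsg.Agent.H5.OZ.TwelveRow

/-!
# S4842: the row `POmega⁺_12 (2)`, complete (helper5, with `kc_plus` of helper530 and helper279)
-/

set_option autoImplicit false

namespace Cfsg.Agent.H5.OZ

open Cfsg Cfsg.Agent.H730.OZ Cfsg.Agent.H530.OZ

universe u

theorem prim_17 : Prim 2 8 17 := by
  refine ⟨by norm_num, fun m => ?_, ⟨2, rfl⟩, by norm_num⟩
  have h1 : 2 ^ m % 17 = 2 ^ (m % 8) % 17 := by
    conv_lhs => rw [← Nat.div_add_mod m 8, pow_add, pow_mul, Nat.mul_mod, Nat.pow_mod]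
    norm_num
  have h2 : 1 ≤ 2 ^ m := Nat.one_le_two_pow
  have h3 : m % 8 < 8 := Nat.mod_lt _ (by norm_num)
  have h4 : 17 ∣ 2 ^ m - 1 ↔ 2 ^ (m % 8) % 17 = 1 := by
    rw [← h1]
    omega
  rw [h4, Nat.dvd_iff_mod_eq_zero]
  have h5 : ∀ r < 8, 2 ^ r % 17 = 1 ↔ r = 0 := by decide
  exact h5 _ h3

/-- **`Cong 2 17 4` for `POmega⁺_12 (2)`** -/
theorem cong_seventeen {S : Type u} [Group S] [Finite S] {F : Type} [Field F] [Fintype F]
    (hF2 : Fintype.card F = 2) (e : S ≃* POmega F (quadFormPlus 6 F)) : Cong 2 17 4 S :=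
  kc_plus (n := 6) le_rfl e 2 1 17 Nat.prime_two (by rw [hF2, pow_one]) prim_17

/-- **The row `POmega⁺_12 (2)`** -/
theorem row_plus12 {S : Type u} [Group S] [Finite S] (hs : IsSimpleGroup S) {F : Type} [Field F] [Fintype F]
    (hF2 : Fintype.card F = 2) (e : S ≃* POmega F (quadFormPlus 6 F)) : Cfsg.Agent.H730.OZ.Row S :=
  row_plus12_two hs hF2 e (cong_seventeen hF2 e)

end Cfsg.Agent.H5.OZ

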